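import Cfsg.Agent.FA.A73

/-! The centraliser of a product of two commuting transpositions in a group of type M(22) and in
its automorphism group. -/

set_option autoImplicit false
set_option maxRecDepth 100000
set_option Elab.async false

namespace Cfsg.Agent.FA.A73

open Cfsg.Agent.M24 (band lall)
open Cfsg.Agent.FM hiding Pts Mdl testBit_fixOf
open Cfsg.Agent.FA Cfsg.Agent.GT Cfsg.Agent.TT Cfsg.Agent.Cl.Orth Subgroup

theorem ck1 : (lall yk fun y => band (Nat.blt y (2 ^ 6)) (tb zm y)) = true := by decide +kernel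
theorem ck2 : abChk cdA 2 [.one, .ps [693, 0]] (qT :: lmap .ps qW) = true := by decide +kernel
theorem ck3 : (Nat.beq (cdA.ap qT 693) 0 && cdA.comm 693 0 &&
    ghChk qX qZ [] (Ex.cj (.ps cjW) (.ps [693, 0])) &&
    !cdA.eqE (Ex.cj (.ps cjW) (.ps [693, 0])) (.ps [693, 0]) &&
    ghChk nX nZ [] (.ps [693, 0]) && ghChk qX qZ [] (.ps [693]) && ghChk qX qZ [] (.ps [0]) &&
    Fi.lall (fun l => ghChk kX kZ [0, 693] (.ps l)) eW &&
    !cdA.commE (.ps (nth nW [] 1)) (.ps (nth nW [] 6))) = true := by decide +kernel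

variable {G : Type*} [Group G] [Finite G] {D : Set G} {β : ℕ → G}
  {A : Mdl (MulAut G) (MulAut.conj '' D) cdA} (h : AM D β A)
include h

omit [Finite G] in
theorem evj : A.ev (.ps [693, 0]) = MulAut.conj (β 693 * β 0) := by
  rw [h.ev_ps (by decide)]; simp [pe]

omit [Finite G] in
theorem base : Commute (β 693) (β 0) ∧ β 693 ≠ β 0 ∧ β 693 * β 693 = 1 ∧ β 0 * β 0 = 1 ∧
    A.ev qT (β 693) = β 0 := by
  have k := ck3
  simp only [Bool.and_eq_true, Nat.beq_eq] at k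
  exact ⟨(h.comm_iff (by decide) (by decide)).1 k.1.1.1.1.1.1.1.2,
    fun e => absurd (h.m.inj _ (by decide) _ (by decide) e) (by decide),
    h.m.sq _ (by decide), h.m.sq _ (by decide), by rw [h.ap _ (by decide), k.1.1.1.1.1.1.1.1]⟩

omit [Finite G] in
theorem jj : β 693 * β 0 * (β 693 * β 0) = 1 ∧ β 693 * β 0 ≠ 1 := by
  obtain ⟨b1, b2, b3, b4, -⟩ := base h
  refine ⟨by rw [b1.symm.mul_mul_mul_comm, b3, b4, one_mul], fun e => b2 ?_⟩
  rw [← mul_one (β 693), ← b4, ← mul_assoc, e, one_mul]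

theorem mem_Q {x : MulAut G} : x ∈ A.clo (qT :: lmap .ps qW) ↔
    x ∈ C1[MulAut.conj (β 693 * β 0)] ∧ ∀ Z ∈ lmap zf yk, A.MapS x Z Z := by
  rw [← (q_A h).1, Mdl.FixL_nil, inf_top_eq, mem_cent1, ← evj h]
  exact and_congr_left' List.forall_mem_singleton

theorem autC : ∃ φ : C1[MulAut.conj (β 693 * β 0)] →* OG QM6, Function.Surjective φ ∧
    ∀ x, x ∈ φ.ker ↔ x.1 ∈ A.clo (qT :: lmap .ps qW) := by
  have e : C1[MulAut.conj (β 693 * β 0)] = A.clo (cT :: lmap .ps cW) := by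
    rw [← (c_A h).1, Mdl.FixL_nil, inf_top_eq]
    ext x
    rw [mem_cent1, ← evj h]
    exact ⟨fun k => ⟨List.forall_mem_singleton.2 k, by simp [cZ]⟩, fun k => k.1 _ List.mem_cons_self⟩
  have e' := fun x => mem_Q h (x := x)
  rw [e] at e' ⊢
  obtain ⟨φ, k⟩ := Mdl.lab_hom (M := A) (by decide) lab z_dis z_span ck1
  have : Finite (OG QM6) := Nat.finite_of_card_ne_zero (by rw [o6_card]; decide)
  exact ⟨φ, fa_surj φ (fun x hx => ((e' x).1 hx).1) (fun x hx => (e' x).2 ⟨x.2, k x hx⟩)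
    (by rw [(q_A h).2, (c_A h).2, o6_card])⟩

theorem lq : LQ (A.clo (qT :: lmap .ps qW)) (MulAut.conj (β 693 * β 0)) := by
  obtain ⟨b1, b2, b3, b4, b5⟩ := base h
  have k := ck3
  simp only [Bool.and_eq_true, Nat.beq_eq] at k
  have c1 : A.clo (qT :: lmap .ps qW) ≤ C1[MulAut.conj (β 693 * β 0)] := fun x hx => ((mem_Q h).1 hx).1
  have m1 : MulAut.conj (β 693) ∈ A.clo (qT :: lmap .ps qW) := by
    have := (q_A h).1 ▸ mem_HF (A := A) k.1.1.1.2
    rwa [A.ev_ps1 (by decide), h.pt] at this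
  have m2 : MulAut.conj (β 0) ∈ A.clo (qT :: lmap .ps qW) := by
    have := (q_A h).1 ▸ mem_HF (A := A) k.1.1.2
    rwa [A.ev_ps1 (by decide), h.pt] at this
  have c2 : C[A.clo (qT :: lmap .ps qW)] ≤ zpowers (MulAut.conj (β 693 * β 0)) := fun x hx => by
    refine Mdl.clo_le (M := A) (All := lmap .ps zW) ?_ ((z_A h).1 ▸ ⟨⟨fun a ha => ?_, by simp [zZ]⟩, by simp⟩)
    · exact List.forall_mem_singleton.2 (evj h ▸ mem_zpowers _)
    · exact (hx _ (A.mem_clo ha)).symm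
  have m3 := map_mul MulAut.conj (β 693) (β 0) ▸ mul_mem m1 m2
  obtain ⟨φ, -, hφ⟩ := autC h
  refine ⟨sx_es m3 (by rw [← map_mul, (jj h).1, map_one]) (fun e => (jj h).2 (h.inj (by rw [e, map_one]))) c1
    (Mdl.ab_clo ?_ (c1.trans (le_norm_of_cent (cent_zpowers _).ge)) ck2) (inf_le_right.trans c2)
    ⟨_, A.mem_clo List.mem_cons_self, _, m1, fun e => b2 ?_⟩, c2.trans (zpowers_le.2 m3),
    (normal_subgroupOf_iff_le_normalizer c1).1 (fa_ker_norm φ hφ ▸ inferInstance)⟩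
  · simp only [List.forall_mem_cons, List.not_mem_nil, false_imp_iff, implies_true, and_true]
    exact ⟨one_mem _, evj h ▸ mem_zpowers _⟩
  · rw [← b5, (comm_conj_iff h.m.ctr).1 e]

theorem large : IsLargeExtraspecial (A.clo (qT :: lmap .ps qW)) := by
  have k := ck3
  simp only [Bool.and_eq_true, Nat.beq_eq, Bool.not_eq_true'] at k
  have a := (q_A h).1 ▸ mem_HF (A := A) k.1.1.1.1.1.1.2
  have b := A.ne_of_eqE k.1.1.1.1.1.2
  rw [Mdl.ev_cj, evj h] at a b
  exact (lq h).large_of_conj a b ((lq h).mem_conj' a b (by rw [(q_A h).2]; decide))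

theorem mem_E {x : G} : x ∈ pcl β eW ↔ MulAut.conj x ∈ A.clo (qT :: lmap .ps qW) := by
  rw [← (e_G h).1, ← (q_A h).1]; rfl

omit [Finite G] in
theorem conj_cent {x y : G} : MulAut.conj x ∈ C1[MulAut.conj y] ↔ x ∈ C1[y] := by
  rw [mem_cent1, mem_cent1]; exact h.comm_conj

theorem cardC : Nat.card C1[β 693 * β 0] = 53084160 := by
  rw [← (g_G h).2, ← (g_G h).1]
  congr 2
  ext x
  rw [h.mem_GH, mem_cent1]
  simp only [gX, gZ, List.forall_mem_singleton, List.not_mem_nil, false_imp_iff, implies_true, and_true]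
  rw [h.ps_fix (by decide)]; simp [pe, Commute, SemiconjBy]

theorem eC : pcl β eW ≤ C1[β 693 * β 0] := fun _ hx => (conj_cent h).1 ((mem_Q h).1 ((mem_E h).1 hx)).1

theorem grpC : ∃ φ : C1[β 693 * β 0] →* OG QM6, Function.Surjective φ ∧ ∀ x, x ∈ φ.ker ↔ x.1 ∈ pcl β eW := by
  obtain ⟨φ, -, hφ⟩ := autC h
  obtain ⟨ψ, hψ⟩ := res_hom φ fun g hg => (conj_cent h).2 hg
  have : Finite (OG QM6) := Nat.finite_of_card_ne_zero (by rw [o6_card]; decide)
  exact ⟨ψ, fa_surj ψ (eC h) (fun x hx => (mem_E h).2 ((hφ _).1 (by rwa [MonoidHom.mem_ker, ← hψ])))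
    (by rw [(e_G h).2, cardC h, o6_card])⟩

theorem abE : ∀ x ∈ pcl β eW, ∀ y ∈ pcl β eW, x * y * x⁻¹ * y⁻¹ ∈ zpowers (β 693 * β 0) ∧
    x ^ 2 ∈ zpowers (β 693 * β 0) := fun x hx y hy => by
  have k : ∀ u : G, MulAut.conj u ∈ zpowers (MulAut.conj (β 693 * β 0)) → u ∈ zpowers (β 693 * β 0) := by
    rintro u ⟨n, e⟩; exact ⟨n, h.inj (by rw [← e, map_zpow])⟩
  refine ⟨k _ (by simpa only [map_mul, map_inv] using
    (lq h).toES.commutator_mem ((mem_E h).1 hx) ((mem_E h).1 hy)), k _ ?_⟩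
  rw [(lq h).toES.mem_zp, sq, map_mul]
  exact (lq h).sq _ ((mem_E h).1 hx)

omit [Finite G] in
theorem eqK : centralizer ({β 693, β 0} : Set G) = GH A kX kZ [0, 693] := by
  ext x
  rw [h.mem_GH]
  simp [mem_centralizer_iff, kX, kZ, Commute, SemiconjBy, eq_comm, and_comm]

omit [Finite G] in
theorem eK : pcl β eW ≤ centralizer ({β 693, β 0} : Set G) := by
  have k := ck3
  simp only [Bool.and_eq_true] at k
  exact eqK h ▸ h.pcl_le_GH e_lt k.1.2

omit [Finite G] h in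
theorem vE : closure ({β 693, β 0} : Set G) ≤ pcl β eW := by
  rw [closure_le]
  rintro _ (rfl | rfl)
  · simpa [pe] using mem_pcl (β := β) (W := eW) (l := [693]) (by decide)
  · simpa [pe] using mem_pcl (β := β) (W := eW) (l := [0]) (by decide)

theorem centE : C[pcl β eW] ≤ closure ({β 693, β 0} : Set G) :=
  (h.cent_le e_lt).trans ((v_G h).1.le.trans (pcl_le (by
    simp only [vW, List.forall_mem_cons, pe]
    simp [Subgroup.mem_closure_of_mem])))

theorem fstarC : fstarOf C1[β 693 * β 0] = pcl β eW := by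
  obtain ⟨φ, h1, h2⟩ := grpC h
  exact fa_fstar Nat.prime_two (eC h) ((normal_subgroupOf_iff_le_normalizer (eC h)).1
    (fa_ker_norm φ h2 ▸ inferInstance)) (IsPGroup.of_card (n := 10) (e_G h).2)
    (inf_le_right.trans ((centE h).trans (vE))) (fa_Op_le φ h1 h2 o6_core)

theorem splitE : ∃ P : Subgroup G, ES P (β 693 * β 0) ∧ Nat.card P = 2 ^ 9 ∧
    Nonempty (pcl β eW ≃* Multiplicative (ZMod 2) × P) := by
  obtain ⟨b1, b2, b3, b4, b5⟩ := base h
  have k := ck3
  simp only [Bool.and_eq_true, Nat.beq_eq, Bool.not_eq_true'] at k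
  have m : ∀ x, x ∈ pcl β nW ↔ x ∈ pcl β eW ∧ A.ev qT x = x := fun x => by
    rw [← (n_G h).1, ← (e_G h).1, h.mem_GH, h.mem_GH]
    simp only [nX, eX, List.forall_mem_cons, List.not_mem_nil, false_imp_iff, implies_true, and_true]
    exact ⟨fun a => ⟨⟨a.1.1, a.2⟩, a.1.2⟩, fun a => ⟨⟨a.1.1, a.2⟩, a.1.2⟩⟩
  have le : pcl β nW ≤ pcl β eW := fun x hx => ((m x).1 hx).1
  have d1 : β 693 ∈ pcl β eW := vE (subset_closure (by simp))
  have c1 : pcl β eW ≤ C1[β 693] := fun x hx => mem_cent1.2 (eK h hx _ (by simp)).symm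
  have n1 : β 693 ∉ pcl β nW := fun e => b2 (by rw [← b5, ((m _).1 e).2])
  have j1 : β 693 * β 0 ∈ pcl β nW := by
    have := (n_G h).1 ▸ h.pe_mem (by decide) k.1.1.1.1.2
    simpa [pe] using this
  refine ⟨pcl β nW, sx_es j1 (jj h).1 (jj h).2 (le.trans (eC h)) (fun x hx y hy => abE h x (le hx) y (le hy))
    (fun x hx => ?_) ⟨_, mem_pcl (l := nth nW [] 1) (by decide), _, mem_pcl (l := nth nW [] 6) (by decide),
      fun e => A.not_commute_of_commE k.2 ?_⟩, (n_G h).2,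
    sx_prod Nat.prime_two (orderOf_eq_prime (by rw [sq, b3]) fun e => n1 (by rw [e]; exact one_mem _)) d1 n1 le
      (le.trans c1) (by rw [(e_G h).2, (n_G h).2])⟩
  · have : x ∈ C[pcl β eW] := fun y hy => by
      by_cases c : A.ev qT y = y
      · exact hx.2 y ((m y).2 ⟨hy, c⟩)
      · have := (lq h).toES.commute_mul ((mem_E h).1 hy) ((mem_E h).1 d1) (A.mem_clo List.mem_cons_self)
          (fun e => c ((comm_conj_iff h.m.ctr).1 e.symm))
          fun e => b2 (by rw [← b5, (comm_conj_iff h.m.ctr).1 e.symm])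
        rw [← map_mul] at this
        have := hx.2 _ ((m _).2 ⟨mul_mem hy d1, (comm_conj_iff h.m.ctr).1 this.symm⟩)
        rwa [mul_assoc, ← mem_cent1.1 (c1 (le hx.1)), ← mul_assoc, ← mul_assoc, mul_left_inj] at this
    rcases (mem_closure_pair b3 b4 b1).1 (centE h this) with e | e | e | e
    · exact e ▸ one_mem _
    · exact absurd (e ▸ hx.1) n1
    · refine absurd ?_ n1
      have := mul_mem j1 (e ▸ hx.1)
      rwa [mul_assoc, b4, mul_one] at this
    · exact e ▸ b1.eq ▸ mem_zpowers _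
  · rw [h.ev_ps (by decide), h.ev_ps (by decide)]; exact e.map _

end Cfsg.Agent.FA.A73
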