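import Cfsg.Agent.Cl.OLow
import Cfsg.Agent.Cl.OExtra

/-!
# Vanishing of `H¹(Ω(V), V)` over the field with two elements
-/

set_option autoImplicit false
set_option linter.unusedSimpArgs false
set_option linter.unnecessarySeqFocus false

namespace Cfsg.Agent.FA.H1O

open Cfsg.Agent.Cl Cfsg.Agent.Cl.Orth

variable {V : Type*} [AddCommGroup V] [Module (ZMod 2) V] {Q : QuadraticForm (ZMod 2) V}

variable (Q) in
/-- crossed homomorphisms on the Eichler subgroup -/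
def Coc (c : OG Q → V) : Prop := ∀ g ∈ EG Q, ∀ h ∈ EG Q, c (g * h) = c g + g.1 (c h)

theorem two_v (v : V) : v + v = 0 := by
  have : (2 : ZMod 2) • v = 0 := by rw [show (2 : ZMod 2) = 0 from rfl, zero_smul]
  rwa [two_smul] at this

theorem Coc.sub {c : OG Q → V} (hc : Coc Q c) (v : V) : Coc Q fun g => c g - (g.1 v - v) := by
  intro g hg h hh
  simp only [hc g hg h hh, OG.mul_apply, map_sub]
  abel

theorem Coc.one {c : OG Q → V} (hc : Coc Q c) : c 1 = 0 := by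
  have := hc 1 (one_mem _) 1 (one_mem _)
  rw [mul_one, OG.one_apply] at this
  simpa using this

/-- the zero set of a crossed homomorphism -/
def Coc.ker {c : OG Q → V} (hc : Coc Q c) : Subgroup (OG Q) where
  carrier := {g | g ∈ EG Q ∧ c g = 0}
  one_mem' := ⟨one_mem _, hc.one⟩
  mul_mem' := by
    rintro a b ⟨ha, ha'⟩ ⟨hb, hb'⟩
    exact ⟨mul_mem ha hb, by rw [hc a ha b hb, ha', hb', map_zero, add_zero]⟩
  inv_mem' := by
    rintro a ⟨ha, ha'⟩
    refine ⟨inv_mem ha, ?_⟩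
    have := hc a⁻¹ (inv_mem ha) a ha
    rwa [inv_mul_cancel, hc.one, ha', map_zero, add_zero, eq_comm] at this

theorem Coc.conj {c : OG Q → V} (hc : Coc Q c) {s g : OG Q} (hs : s ∈ hc.ker) (hg : g ∈ EG Q) :
    c (s * g * s⁻¹) = s.1 (c g) := by
  rw [hc _ (mul_mem hs.1 hg) _ (inv_mem hs.1), hc _ hs.1 _ hg, hs.2, (inv_mem hs).2, map_zero,
    add_zero, zero_add]

variable {w0 w1 : V}

/-- an elliptic plane -/
structure Ell (Q : QuadraticForm (ZMod 2) V) (w0 w1 : V) : Prop where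
  q0 : Q w0 = 1
  q1 : Q w1 = 1
  b : B Q w0 w1 = 1

theorem B_self0 (x : V) : B Q x x = 0 := by
  rw [B_self, show (2 : ZMod 2) = 0 from rfl, zero_mul]

theorem Ell.t_apply (h : Ell Q w0 w1) (x : V) : (refl Q w0 * refl Q w1).1 x =
    x + (B Q x w0 + B Q x w1) • w0 + B Q x w1 • w1 := by
  rw [OG.mul_apply, refl_apply, refl_apply, h.q0, h.q1, map_sub, map_smul, LinearMap.sub_apply,
    LinearMap.smul_apply, B_comm Q w1 w0, h.b]
  simp only [inv_one, one_mul, smul_eq_mul, mul_one, CharTwo.sub_eq_add]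
  rw [sub_eq_add_neg, sub_eq_add_neg, ← neg_smul, ← neg_smul, CharTwo.neg_eq, CharTwo.neg_eq]
  abel

theorem Ell.t_w0 (h : Ell Q w0 w1) : (refl Q w0 * refl Q w1).1 w0 = w1 := by
  rw [h.t_apply, B_self0, h.b, zero_add, one_smul, one_smul, two_v, zero_add]

theorem Ell.t_w1 (h : Ell Q w0 w1) : (refl Q w0 * refl Q w1).1 w1 = w0 + w1 := by
  rw [h.t_apply, B_self0, B_comm Q w1, h.b, add_zero, one_smul, zero_smul, add_zero, add_comm]

theorem Ell.t_fix (h : Ell Q w0 w1) {x : V} (h0 : B Q x w0 = 0) (h1 : B Q x w1 = 0) :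
    (refl Q w0 * refl Q w1).1 x = x := by
  rw [h.t_apply, h0, h1]; simp

theorem Ell.t_cube (h : Ell Q w0 w1) :
    refl Q w0 * refl Q w1 * (refl Q w0 * refl Q w1 * (refl Q w0 * refl Q w1)) = 1 := by
  refine OG.ext' fun x => ?_
  set t := refl Q w0 * refl Q w1 with ht
  have hx : x = (x + B Q x w1 • w0 + B Q x w0 • w1) + B Q x w1 • w0 + B Q x w0 • w1 := by
    have h1 := two_v (B Q x w1 • w0)
    have h2 := two_v (B Q x w0 • w1)
    linear_combination (norm := module) -h1 - h2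
  have hy : t.1 (x + B Q x w1 • w0 + B Q x w0 • w1) = x + B Q x w1 • w0 + B Q x w0 • w1 := by
    apply h.t_fix
    · simp [B_self0, B_comm Q w1 w0, h.b, CharTwo.add_self_eq_zero]
    · simp [B_self0, h.b, CharTwo.add_self_eq_zero]
  have a0 : t.1 w0 = w1 := h.t_w0
  have a1 : t.1 w1 = w0 + w1 := h.t_w1
  have c0 : t.1 (t.1 (t.1 w0)) = w0 := by
    rw [a0, a1, map_add, a0, a1]
    have := two_v w1
    linear_combination (norm := module) this
  have c1 : t.1 (t.1 (t.1 w1)) = w1 := by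
    rw [← a0, c0]
  clear_value t
  rw [OG.mul_apply, OG.mul_apply, OG.one_apply]
  generalize x + B Q x w1 • w0 + B Q x w0 • w1 = y at hx hy
  rw [hx]
  simp only [map_add, map_smul, hy, c0, c1]

theorem Ell.key (h : Ell Q w0 w1) {c : OG Q → V} (hc : Coc Q c)
    (ht : refl Q w0 * refl Q w1 ∈ hc.ker) {u : V} (hu : Q u = 0) (hu0 : u ≠ 0)
    (h0 : B Q u w0 = 0) (h1 : B Q u w1 = 0) :
    ∃ k : ZMod 2, c (eich Q u w0 hu h0) = k • (w0 + u) := by
  set t := refl Q w0 * refl Q w1 with htd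
  have tu : t.1 u = u := h.t_fix h0 h1
  have a0 : t.1 w0 = w1 := h.t_w0
  have a1 : t.1 w1 = w0 + w1 := h.t_w1
  have h01 : B Q u (w0 + w1) = 0 := by simp [h0, h1]
  set y := c (eich Q u w0 hu h0) with hy
  have e1 : c (eich Q u w1 hu h1) = t.1 y := by
    rw [← hc.conj ht (eich_mem_EG hu h0), conj_eich]
    exact congrArg c (eich_congr _ _ _ _ tu.symm a0.symm)
  have e2 : c (eich Q u (w0 + w1) hu h01) = t.1 (t.1 y) := by
    rw [← e1, ← hc.conj ht (eich_mem_EG hu h1), conj_eich]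
    exact congrArg c (eich_congr _ _ _ _ tu.symm a1.symm)
  have e3 := hc _ (eich_mem_EG hu h0) _ (eich_mem_EG hu h1)
  rw [eich_mul, e2, e1, ← hy] at e3
  have e4 := hc _ (eich_mem_EG hu h0) _ (eich_mem_EG hu h0)
  rw [eich_mul, eich_congr _ _ hu (by simp) rfl (two_v w0), eich_zero, hc.one, ← hy,
    eich_apply, h.q0, one_mul] at e4
  have b1 : B Q y u = 0 := by
    have := congrArg (fun z => B Q z w1) e4
    simp [h1, h.b, CharTwo.add_self_eq_zero, ← add_sub_assoc] at this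
    exact this.symm
  have b0 : B Q y w0 = 0 := by
    rw [b1, zero_smul, zero_smul, sub_zero, sub_zero, ← add_assoc, two_v, zero_add, eq_comm,
      smul_eq_zero] at e4
    exact e4.resolve_right hu0
  refine ⟨B Q y w1, ?_⟩
  have t1 : t.1 y = y + B Q y w1 • (w0 + w1) := by
    rw [h.t_apply, b0, zero_add, smul_add, add_assoc]
  have ey : (eich Q u w0 hu h0).1 y = y := eich_of_orth hu h0 b1 b0
  have ew : (eich Q u w0 hu h0).1 (w0 + w1) = w0 + w1 + u := by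
    rw [eich_apply, B_comm Q _ u, h01]
    simp [B_self0, B_comm Q w1 w0, h.b]
  rw [t1, map_add, map_add, map_smul, map_smul, ey, ew, t1, map_add, a0, a1] at e3
  have z1 := two_v y
  have z2 := two_v (B Q y w1 • w0)
  have z3 := two_v (B Q y w1 • w1)
  have z4 := two_v (B Q y w1 • u)
  simp only [smul_add] at e3 ⊢
  linear_combination (norm := module) -e3 + z3 - z4

theorem h1_zero [FiniteDimensional (ZMod 2) V] (hR : Rad0 Q) (h : Ell Q w0 w1) {e f : V}
    (hef : Hyp Q e f) (e0 : B Q e w0 = 0) (e1 : B Q e w1 = 0) (f0 : B Q f w0 = 0)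
    (f1 : B Q f w1 = 0) {I : Type*} (u : I → V) (hu : ∀ i, Q (u i) = 0) (hu0 : ∀ i, u i ≠ 0)
    (ue : ∀ i, B Q (u i) e = 0) (uf : ∀ i, B Q (u i) f = 0)
    (u0 : ∀ i, B Q (u i) w0 = 0) (u1 : ∀ i, B Q (u i) w1 = 0)
    (hdual : ∀ k : I → ZMod 2, ∃ v, B Q v e = 0 ∧ B Q v f = 0 ∧ B Q v w0 = 0 ∧ B Q v w1 = 0 ∧
      ∀ i, B Q v (u i) = k i)
    (hspan : ∀ A : AddSubgroup V, w0 ∈ A → w1 ∈ A → (∀ i, u i ∈ A) →
      ∀ w, B Q e w = 0 → B Q f w = 0 → w ∈ A)
    {c : OG Q → V} (hc : Coc Q c) : ∃ v, ∀ g ∈ EG Q, c g = g.1 v - v := by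
  set t := refl Q w0 * refl Q w1 with htd
  have t3 : t * (t * t) = 1 := h.t_cube
  have htE : t ∈ EG Q := by
    have := hef.sq_mem_EG hR e0 f0 (by rw [h.q0]; exact one_ne_zero) (t * t)
    rwa [mul_assoc, t3, mul_one] at this
  -- normalise on `t`
  have n1 : c t = t.1 (t.1 (c t)) - t.1 (c t) := by
    have := hc t htE _ (mul_mem htE htE)
    rw [t3, hc.one, hc t htE t htE, map_add] at this
    have z := two_v (t.1 (t.1 (c t)))
    linear_combination (norm := module) -this - z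
  have hc1 := hc.sub (t.1 (c t))
  have ht1 : t ∈ hc1.ker := ⟨htE, sub_eq_zero.mpr n1⟩
  obtain ⟨ke, hke⟩ := h.key hc1 ht1 hef.he hef.e_ne e0 e1
  obtain ⟨kf, hkf⟩ := h.key hc1 ht1 hef.hf hef.f_ne f0 f1
  choose k hk using fun i => h.key hc1 ht1 (hu i) (hu0 i) (u0 i) (u1 i)
  obtain ⟨v, ve, vf, v0, v1, hv⟩ := hdual k
  set v' := v + ke • f + kf • e with hv'
  have hc2 := hc1.sub v'
  have v'0 : B Q v' w0 = 0 := by simp [hv', v0, e0, f0]
  have v'1 : B Q v' w1 = 0 := by simp [hv', v1, e1, f1]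
  have ht2 : t ∈ hc2.ker := ⟨htE, by
    show _ - _ = 0
    rw [h.t_fix v'0 v'1, sub_self, sub_zero]; exact ht1.2⟩
  have mem : ∀ (x : V) (hx : Q x = 0) (x0 : B Q x w0 = 0) (κ : ZMod 2),
      c (eich Q x w0 hx x0) - ((eich Q x w0 hx x0).1 (t.1 (c t)) - t.1 (c t)) = κ • (w0 + x) →
      B Q v' x = κ → eich Q x w0 hx x0 ∈ hc2.ker := by
    intro x hx x0 κ h1 h2
    refine ⟨eich_mem_EG _ _, ?_⟩
    show _ - _ = 0
    rw [h1, eich_apply, v'0, h2, h.q0, one_mul, zero_smul, smul_add]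
    have z1 := two_v (κ • w0)
    have z2 := two_v (κ • x)
    linear_combination (norm := module) z1 + z2
  have mu : ∀ i, eich Q (u i) w0 (hu i) (u0 i) ∈ hc2.ker := fun i =>
    mem _ _ _ _ (hk i) (by simp [hv', hv, B_comm Q e, B_comm Q f, ue, uf])
  have gen : ∀ (x : V) (hx : Q x = 0) (x0 : B Q x w0 = 0) (x1 : B Q x w1 = 0)
      (_ : ∀ i, B Q (u i) x = 0), eich Q x w0 hx x0 ∈ hc2.ker →
      ∀ w (hw : B Q x w = 0), B Q e w = 0 → B Q f w = 0 → eich Q x w hx hw ∈ hc2.ker := by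
    intro x hx x0 x1 xu hm w hw we wf
    have stab : ∀ s ∈ hc2.ker, s.1 x = x → ∀ z ∈ eichPar Q x hx hc2.ker,
        s.1 z ∈ eichPar Q x hx hc2.ker := by
      rintro s hs hsx z ⟨hz, hz'⟩
      have hz2 : B Q x (s.1 z) = 0 := by rw [← hsx, OG.B_apply, hz]
      rw [mem_eichPar_iff hz2]
      have := mul_mem (mul_mem hs hz') (inv_mem hs)
      rwa [conj_eich, eich_congr _ _ hx hz2 hsx rfl] at this
    have m0 : w0 ∈ eichPar Q x hx hc2.ker := (mem_eichPar_iff x0).mpr hm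
    have m1 : w1 ∈ eichPar Q x hx hc2.ker := by
      have := stab t ht2 (h.t_fix x0 x1) _ m0
      rwa [h.t_w0] at this
    refine (mem_eichPar_iff hw).mp (hspan _ m0 m1 (fun i => ?_) w we wf)
    have := stab _ (mu i) (eich_of_orth _ _ (by rw [B_comm, xu]) x0) _ m1
    rw [eich_apply, B_comm Q w1 (u i), u1, B_comm Q w1 w0, h.b] at this
    simpa using sub_mem this m1
  have hle : EG Q ≤ hc2.ker := by
    refine hef.EG_le hR _ (fun w h1 h2 => ?_) (fun w h1 h2 => ?_)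
    · exact gen e hef.he e0 e1 ue (mem _ _ _ _ hke (by simp [hv', ve, hef.hfe, hef.hee])) w h1 h1 h2
    · exact gen f hef.hf f0 f1 uf (mem _ _ _ _ hkf (by simp [hv', vf, hef.hef, hef.hff])) w h2 h1 h2
  refine ⟨t.1 (c t) + v', fun g hg => ?_⟩
  have : c g - (g.1 (t.1 (c t)) - t.1 (c t)) - (g.1 v' - v') = 0 := (hle hg).2
  rw [map_add]
  linear_combination (norm := module) this

theorem transfer {ι : Type} [Fintype ι] [DecidableEq ι] (q : (ι → ZMod 2) → ZMod 2)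
    (e : (ι → ZMod 2) ≃ₗ[ZMod 2] V) (h : ∀ v, q v = Q (e v)) (hE : commutator (OG Q) = EG Q)
    (H : ∀ c : OG Q → V, Coc Q c → ∃ v, ∀ g ∈ EG Q, c g = g.1 v - v)
    (f : Cfsg.Omega (ZMod 2) q → ι → ZMod 2)
    (hf : ∀ g h : Cfsg.Omega (ZMod 2) q, f (g * h) = f g + Matrix.mulVec
      (((g : Cfsg.isometryGroup (ZMod 2) q) : GL ι (ZMod 2)) : Matrix ι ι (ZMod 2)) (f h)) :
    ∃ v : ι → ZMod 2, ∀ g : Cfsg.Omega (ZMod 2) q, f g = Matrix.mulVec
      (((g : Cfsg.isometryGroup (ZMod 2) q) : GL ι (ZMod 2)) : Matrix ι ι (ZMod 2)) v - v := by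
  classical
  let φ := omegaEquiv (matEquiv' q e h) hE
  have hφ : ∀ (g : Cfsg.Omega (ZMod 2) q) (v : V), (φ g).1.1 v = e (Matrix.mulVec
      (((g : Cfsg.isometryGroup (ZMod 2) q) : GL ι (ZMod 2)) : Matrix ι ι (ZMod 2)) (e.symm v)) :=
    fun g v => rfl
  obtain ⟨v, hv⟩ := H (fun g => if hg : g ∈ EG Q then e (f (φ.symm ⟨g, hg⟩)) else 0) (by
    intro g hg k hk
    simp only [dif_pos hg, dif_pos hk, dif_pos (mul_mem hg hk)]
    rw [show (⟨g * k, mul_mem hg hk⟩ : EG Q) = ⟨g, hg⟩ * ⟨k, hk⟩ from rfl, map_mul, hf, map_add]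
    have := hφ (φ.symm ⟨g, hg⟩) (e (f (φ.symm ⟨k, hk⟩)))
    rw [φ.apply_symm_apply, e.symm_apply_apply] at this
    rw [← this])
  refine ⟨e.symm v, fun g => e.injective ?_⟩
  have := hv (φ g).1 (φ g).2
  simp only [dif_pos (φ g).2, Subtype.coe_eta, φ.symm_apply_apply] at this
  rw [this, hφ, map_sub, e.apply_symm_apply]

end Cfsg.Agent.FA.H1O
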