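import Cfsg.Agent.FA.SY
import Cfsg.Agent.Fi.Gc

/-! Local tables, labelled points and class invariants in models of automorphism groups. -/

set_option autoImplicit false

namespace Cfsg.Agent.FA

open Cfsg.Agent.M24 (band bor bif' lall nall band_eq bor_eq bif'_eq lall_iff nall_iff)
open Cfsg.Agent.FM hiding Pts Mdl testBit_fixOf
open Cfsg.Agent.GT Cfsg.Agent.TT Subgroup
open Cfsg.Agent.Fi (LM Base PC Tl Cov omChk ldChk cjChk lf3 Job CT jobsChk cutL)

/-- the generator `a` permutes the labelled points `pf` as `k` permutes the labels -/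
noncomputable def labP {κ : Type} (c : CD) (N Ym : ℕ) (pf : ℕ → ℕ) (act : κ → ℕ → ℕ) (ok : κ → Bool)
    (a : Ex) (k : κ) : Bool :=
  band (ok k) (nall N fun x => bif' (tb Ym x) (fc (act k x) fun y => band (tb Ym y)
    (fc (pf x) fun q => band (Nat.blt q c.n) (Nat.beq (c.ap a q) (pf y)))) true)

theorem lall2_mono {α κ : Type} {f g : α → κ → Bool} (h : ∀ a b, f a b = true → g a b = true) :
    ∀ {l : List α} {m : List κ}, lall2 f l m = true → lall2 g l m = true
  | [], _, _ => rfl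
  | _ :: _, [], e => e
  | a :: l, b :: m, e => by
    have h' := Bool.and_eq_true_iff.1 ((band_eq (f a b) (lall2 f l m)).symm.trans e)
    exact (band_eq (g a b) (lall2 g l m)).trans (Bool.and_eq_true_iff.2 ⟨h a b h'.1, lall2_mono h h'.2⟩)

namespace Mdl

variable {G : Type*} [Group G] {D : Set G} {c : CD} (M : Mdl G D c) {m n p : ℕ} {om : ℕ → ℕ}
  {T : ℕ → ℕ → ℕ} {g : ℕ → G} {bl : List ℕ}

include M in
theorem labP_spec {κ : Type} {N Ym : ℕ} {pf : ℕ → ℕ} {act : κ → ℕ → ℕ} {ok : κ → Bool} (a : Ex) (k : κ)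
    (h : labP c N Ym pf act ok a k = true) : labChk c N Ym (fun y => sgl (pf y)) act ok a k = true := by
  simp only [labP, labChk, band_eq, Bool.and_eq_true, nall_iff, fc_eq, bif'_eq] at h ⊢
  refine ⟨h.1, fun x hx => ?_⟩
  have := h.2 x hx
  split_ifs at this ⊢
  · simp only [Bool.and_eq_true, Nat.blt_eq, Nat.beq_eq] at this ⊢
    refine ⟨this.1, eqS_iff.2 fun i hi => ?_⟩
    rw [← M.ac_ac_inv (M.ev a) hi, (M.rs_im a).ac _ (M.ac_lt _ hi), ← this.2.2, M.ap_eq _ this.2.1]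
    simp only [testBit_sgl, decide_eq_decide]
    exact ⟨fun e => by rw [e], M.ac_inj _ (M.ac_lt _ hi) this.2.1⟩
  · rfl

theorem fix_of_sgl {x : G} {q : ℕ} (hq : q < c.n) (h : M.MapS x (sgl q) (sgl q)) : M.ac x q = q := by
  simpa using h q hq

/-- conjugate elements have the same number of fixed points -/
theorem cnt_fix_conj {a b : Ex} (h : IsConj (M.ev a) (M.ev b)) :
    cnt c.n c.B (c.fix a) = cnt c.n c.B (c.fix b) := by
  obtain ⟨x, e⟩ := isConj_iff.1 h
  refine MapS.cnt (M := M) (g := x) fun y hy => ?_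
  rw [Bool.eq_iff_iff, M.fix_iff _ hy, M.fix_iff _ (M.ac_lt _ hy), M.pt_ac _ hy, ← e]
  exact ⟨fun k => by simpa [mul_assoc] using k.map (MulAut.conj x⁻¹), fun k => k.map (MulAut.conj x)⟩

theorem lm (ho : omChk c.n m om = true) {Es : List Ex}
    (h : ∀ j < n, ldChk c m om T j (.ex (nth Es .one j)) = true) :
    LM m n T (fun a => M.pt (om a)) fun j => M.ev (nth Es .one j) := by
  obtain ⟨o1, o2⟩ := Fi.omChk_spec ho
  refine ⟨fun j hj a ha => ?_, fun a ha b hb e => o2 a ha b hb (M.inj _ (o1 a ha) _ (o1 b hb) e)⟩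
  have := h j hj
  simp only [ldChk, nall_iff, fc_eq, band_eq, Bool.and_eq_true, Nat.blt_eq, Nat.beq_eq] at this
  refine ⟨(this a ha).1, ?_⟩
  show M.pt _ = _
  rw [← (this a ha).2, M.ap_eq _ (o1 a ha), M.pt_ac _ (o1 a ha)]

theorem lm_cj (ho : omChk c.n m om = true) (h : LM m n T (fun a => M.pt (om a)) g)
    (hb : Base m (fun a => M.pt (om a)) ⊤ bl) {w : List ℕ} (hw : ∀ i ∈ w, i < n) {a b : Ex}
    (e : cjChk c om T bl w a b = true) : M.ev a * Wd.ev g w * (M.ev a)⁻¹ = M.ev b := by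
  obtain ⟨o1, -⟩ := Fi.omChk_spec ho
  have := hb.2 ((M.ev b * M.ev a)⁻¹ * (M.ev a * Wd.ev g w)) trivial fun q hq => by
    have hq' := hb.1 q hq
    obtain ⟨a1, a2⟩ := h.word hw q hq'
    have e1 := congrArg M.pt (Nat.eq_of_beq_eq_true ((lall_iff _ _).1 e q hq))
    simp only [fc_eq] at e1
    rw [M.ap_eq _ (o1 _ a1), M.pt_ac _ (o1 _ a1), M.ap_eq a (o1 _ hq'), M.ap_eq _ (M.ac_lt _ (o1 _ hq')),
      M.pt_ac _ (M.ac_lt _ (o1 _ hq')), M.pt_ac _ (o1 _ hq')] at e1
    simp only at a2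
    rw [a2] at e1
    show _ * _ = _ * _
    calc _ = (M.ev b * M.ev a)⁻¹ * (M.ev a * (Wd.ev g w * M.pt (om q) * (Wd.ev g w)⁻¹) * (M.ev a)⁻¹) *
        (M.ev a * Wd.ev g w) := by group
      _ = _ := by rw [e1]; group
  rw [inv_mul_eq_one] at this
  rw [← this, mul_inv_cancel_right]

theorem base_top (hl : ∀ a ∈ bl, a < m) (h0 : bl.map om ≠ []) {ts : List Tm}
    (h : (c.ltL (bl.map om) && subL c.bs (c.ext ⟨bl.map om, [], []⟩ ts)) = true) :
    Base m (fun a => M.pt (om a)) ⊤ bl := by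
  refine ⟨hl, fun x _ hx => ?_⟩
  have := (Mdl.base (M := M) (K := ⊥) stab_top ts h0 h).1
  refine mem_bot.1 (this ⟨trivial, M.mem_FixL'.2 fun q hq => ?_⟩)
  obtain ⟨a, ha, rfl⟩ := List.mem_map.1 hq
  exact hx a ha

/-- the involutions outside a normal subgroup containing all but the first generator of a Sylow
`2`-subgroup -/
theorem outer2 [Finite G] (ho : omChk c.n m om = true) (h : LM m n T (fun a => M.pt (om a)) g)
    (hb : Base m (fun a => M.pt (om a)) ⊤ bl) {R : List (List ℕ)}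
    (hR : nall n (fun i => Fi.pcRow 2 n T bl i (nth R [] i)) = true) {B : ℕ} (hB : m ≤ 2 ^ B)
    {l : List (ℕ × List ℕ × ℕ)} (e : Fi.chnChk 2 n m B T l [] (2 ^ n) = true) {r : ℕ}
    (hG : Nat.card G = 2 ^ n * r) (hr : ¬ 2 ∣ r) {K : Subgroup G} [hK : K.Normal]
    (hg : ∀ i, 1 ≤ i → i < n → g i ∈ K) {reps : List Ex} {jss : List (List Job)}
    (hj : ∀ js ∈ jss, jobsChk 2 n T (l.map Prod.fst) (lf3 c om T bl n reps) js = true) {t : CT}
    (ht : t.chk 2 n T (l.map Prod.fst) (cutL jss) [0] 1 = true) {y : G} (hy : orderOf y = 2) (hk : y ∉ K) :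
    ∃ a ∈ reps, IsConj y (M.ev a) := by
  have pc := h.pc hb hR
  obtain ⟨c1, c2⟩ := h.order pc two_pos hB e
  have h1 : ∀ a y : G, (a * y * a⁻¹ ∈ K ∨ ∃ b ∈ reps, IsConj (a * y * a⁻¹) (M.ev b)) →
      y ∈ K ∨ ∃ b ∈ reps, IsConj y (M.ev b) := fun a y => Or.imp
    (fun k => by simpa [mul_assoc] using hK.conj_mem _ k a⁻¹)
    fun ⟨b, b1, b2⟩ => ⟨b, b1, (isConj_iff.2 ⟨a, rfl⟩).trans b2⟩
  have tr := fun L hL t w k => h.tree (Good := fun y => y ∈ K ∨ ∃ b ∈ reps, IsConj y (M.ev b))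
    pc Nat.prime_two c1 c2 h1 (L := L) hL t (w := w) (k := k)
  refine (pc.cov_all (Good := fun y => y ∈ K ∨ ∃ b ∈ reps, IsConj y (M.ev b)) Nat.prime_two c1 hG hr h1
    (fun y f hy hf e => by
      obtain ⟨f, rfl⟩ := Nat.coprime_two_right.1 hf
      rwa [pow_succ, pow_mul, hy, one_pow, one_mul] at e) (fun k hk => ?_) hy).resolve_left hk
  rcases Nat.eq_zero_or_pos k with rfl | k0
  · have hL : ∀ w k d, (∀ i ∈ w, i < n) → lf3 c om T bl n reps w k d = true →
        Cov 2 g n (fun y => y ∈ K ∨ ∃ b ∈ reps, IsConj y (M.ev b)) (Wd.ev g w) k := fun w k d hw e => by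
      simp only [lf3, band_eq, Bool.and_eq_true, Nat.beq_eq, Nat.blt_eq] at e
      rw [e.1]
      exact Cov.leaf (Or.inr ⟨_, by rw [nth_of_lt _ _ e.2.1]; exact List.getElem_mem _,
        isConj_iff.2 ⟨_, M.lm_cj ho h hb hw e.2.2⟩⟩)
    simpa [Wd.ev] using tr (cutL jss) (fun w k d hw e => by
      simp only [cutL, band_eq, Bool.and_eq_true, Nat.blt_eq, Nat.beq_eq, decide_eq_true_eq] at e
      obtain ⟨e0, e1, e2⟩ := e
      rcases nth_mem (nth jss [] (Nat.shiftRight d 10)) ([], 0, CT.lf 0) (Nat.land d 1023) with q | q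
      · rcases nth_mem jss [] (Nat.shiftRight d 10) with r | r
        · have := Fi.jobsChk_spec (hj _ r) _ q
          rw [← e1, ← e2] at this
          exact tr _ hL _ _ _ hw this
        · rw [r] at q; simp at q
      · rw [q] at e1; exact absurd e1 e0.ne') t [0] 1 (by simpa using hk) ht
  · exact fun v hv _ => Or.inl (mul_mem (hg k k0 hk) (Fi.Tl.le (fun i a b => hg i (by omega) b) hv))

end Mdl

end Cfsg.Agent.FA
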