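import Cfsg.Agent.Fi.XR2
import Cfsg.Agent.Fi.UAut
import Cfsg.Agent.Cl.OLowU
import Cfsg.Agent.Cl.OExtra

/-! The orthogonal group of the elliptic form in dimension 6 over the field with two elements. -/

set_option autoImplicit false

namespace Cfsg.Agent.FA

open Cfsg Cfsg.Agent.TT Cfsg.Agent.Cl Cfsg.Agent.Cl.Orth Cfsg.Agent.Fi Subgroup

def ql6 : List (ℕ × ℕ × ℕ) := [(0, 1, 1), (2, 3, 1), (4, 4, 1), (4, 5, 1), (5, 5, 1)]

noncomputable abbrev QM6 := qL (ZMod 2) 6 ql6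

theorem o6_iso : Nonempty (OG QM6 ≃* isometryGroup (ZMod 2) (quadFormMinus 2 (ZMod 2) 1 1)) := by
  let σ : Fin 6 ≃ (Fin 2 ⊕ Fin 2) ⊕ Fin 2 := Equiv.ofBijective
    ![.inl (.inl 0), .inl (.inr 0), .inl (.inl 1), .inl (.inr 1), .inr 0, .inr 1] (by decide)
  exact ⟨(matEquiv' (Q := QM6) (quadFormMinus 2 (ZMod 2) 1 1) (LinearEquiv.funCongrLeft _ _ σ)
    fun v => by simp [qL_apply, ql6, cf6, quadFormMinus, Fin.sum_univ_two, σ, sq, add_assoc]).symm⟩

section

variable {V : Type*} [AddCommGroup V] [Module (ZMod 2) V] {Q : QuadraticForm (ZMod 2) V} [Finite V]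

omit [Finite V] in
theorem o2_scalar {g : OG Q} (h : ∃ c : ZMod 2, c * c = 1 ∧ ∀ x, g.1 x = c • x) : g = 1 := by
  obtain ⟨c, h1, h2⟩ := h
  have : c = 1 := by clear h2; revert c; decide
  exact OG.ext' fun x => by rw [h2, this, one_smul]; rfl

theorem o2_core {p : ℕ} (hp : p.Prime) (hB : BNondeg Q) (hV : 5 ≤ Module.finrank (ZMod 2) V) {e f : V}
    (h : Hyp Q e f) (hE : EG Q ≤ ⁅EG Q, EG Q⁆) : pCore p (OG Q) = ⊥ := by
  have := Fact.mk hp
  have : Finite (OG Q) := Finite.of_injective (fun g v => g.1 v) fun _ _ e => OG.ext' (congrFun e)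
  rcases scalar_or_le hB.rad0 hV h (pCore p (OG Q)) fun n hn g _ => (pCore_normal p _).conj_mem n hn g
    with k | k
  · exact eq_bot_iff.2 fun n hn => o2_scalar (k n hn)
  · have h1 : IsPGroup p (EG Q) := pCore_isPGroup.to_le (hE.trans k)
    have h2 : Group.IsNilpotent (EG Q) := h1.isNilpotent
    have h3 : commutator (EG Q) = ⊤ := by
      rw [eq_top_iff]
      intro x _
      have := hE x.2
      rw [← map_subtype_commutator] at this
      obtain ⟨y, hy, e⟩ := this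
      rwa [← Subtype.ext e]
    refine absurd ?_ (center_EG_ne_top hB.rad0 h (by omega))
    by_contra h4
    have : Nontrivial (EG Q) := by
      by_contra h5
      rw [not_nontrivial_iff_subsingleton] at h5
      exact h4 (Subsingleton.elim _ _)
    exact (Group.IsSolvable.commutator_lt_top_of_nontrivial (EG Q)).ne h3

omit [Finite V] in
/-- the orthogonal group acts faithfully on `Ω` -/
theorem o2_aut (hB : BNondeg Q) (hV : 3 ≤ Module.finrank (ZMod 2) V) {e f : V} (h : Hyp Q e f)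
    {X : Type*} [Group X] (φ : EG Q ⧸ center (EG Q) ≃* X) :
    ∃ ψ : OG Q →* MulAut X, Function.Injective ψ := by
  obtain ⟨w, w1, w2, hw⟩ := h.exists_nonsing hB.rad0 hV
  obtain ⟨y, hy⟩ := hB.exists_B_ne (u := w) (by rintro rfl; simp at hw)
  rw [← B_pr w1 w2] at hy
  obtain ⟨u⟩ := xr_quot_bot (card_eq_one.1 (h.card_center_eq_one hB hV (Or.inr rfl)))
  refine ⟨(MulAut.congr (u.symm.trans φ)).toMonoidHom.comp MulAut.conjNormal,
    (MulAut.congr _).injective.comp ?_⟩
  rw [injective_iff_map_eq_one]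
  refine fun g hg => o2_scalar (h.scalar_of_center hB.rad0 hV w1 (pr_e h _) hy g fun η hη => ?_)
  exact mul_inv_eq_iff_eq_mul.1 (congrArg Subtype.val (MulEquiv.congr_fun hg ⟨η, hη⟩))

end

theorem o6_hs : Nonempty (OG QM6 ≃* OG (HS 2 (Q2 (1 : ZMod 2) 1))) :=
  let ⟨e⟩ := o6_iso
  ⟨e.trans (oMinus 2 1 1)⟩

theorem o6_card : Nat.card (OG QM6) = 51840 := by
  obtain ⟨e⟩ := o6_hs
  rw [Nat.card_congr e.toEquiv, card_OG_minus aniso_one_one]
  simp [Finset.prod_range_succ]

theorem o6_core : pCore 2 (OG QM6) = ⊥ := by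
  obtain ⟨e⟩ := o6_hs
  have : Finite (OG QM6) := Nat.finite_of_card_ne_zero (by rw [o6_card]; decide)
  have hB := bnondeg_HS (m := 2) aniso_one_one.bnondeg
  have := o2_core Nat.prime_two hB (by rw [finrank_HV]; simp) (hyp_HS 0)
    (perfect_HS aniso_one_one.bnondeg le_rfl (by simp))
  rw [← map_pCore_equiv e] at this
  exact (map_eq_bot_iff_of_injective _ e.injective).1 this

theorem o6_aut : ∃ (F : Type) (_ : Field F) (_ : Fintype F), Fintype.card F = 4 ∧
    Nonempty (OG QM6 ≃* MulAut (PSU 4 F 2)) := by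
  obtain ⟨e⟩ := o6_hs
  have : Fintype (GaloisField 2 2) := Fintype.ofFinite _
  have hF : Fintype.card (GaloisField 2 2) = 4 := by
    rw [← Nat.card_eq_fintype_card, GaloisField.card 2 2 (by decide)]; rfl
  obtain ⟨_, H⟩ := Uni.exists_isFrob (q := Fintype.card (ZMod 2)) (hF.trans (by simp))
  obtain ⟨u⟩ := pomega_six_minus_equiv H aniso_one_one
  have hB := bnondeg_HS (m := 2) aniso_one_one.bnondeg
  obtain ⟨ψ, hψ⟩ := o2_aut hB (by rw [finrank_HV]; simp) (hyp_HS 0)
    ((pomegaEquiv (oMinus 2 1 1) (commutator_HS aniso_one_one.bnondeg le_rfl (by simp))).symm.trans u)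
  have := finite_aut_psu hF (n := 4) (by simp)
  have h1 := card_aut_psu4 hF
  have h2 : Function.Injective (ψ.comp e.toMonoidHom) := hψ.comp e.injective
  exact ⟨_, _, _, hF, ⟨MulEquiv.ofBijective _ ((Nat.bijective_iff_injective_and_card _).2
    ⟨h2, le_antisymm (Nat.card_le_card_of_injective _ h2) (o6_card ▸ h1)⟩)⟩⟩

end Cfsg.Agent.FA
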